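import Cfsg.Agent.Mult.Slices
import Cfsg.Agent.Gol.M12PresR

set_option autoImplicit false
set_option Elab.async false
set_option maxRecDepth 100000
set_option linter.all false

namespace Cfsg.Agent.Gol
open Cfsg.Agent.CGT

open Cfsg.Agent.Mult

noncomputable def m12c2_n0 : Net := Net.cons 8 0x40 <|
  Net.cons 2 0x2 <|
  Net.cons 1 0x14 <|
  Net.cons 2 0x22 <|
  Net.cons 4 0x408 <|
  Net.cons 8 0x44 <|
  Net.nil
noncomputable def m12c2_n1 : Net := Net.cons 8 0x80 <|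
  Net.cons 4 0x806 <|
  Net.cons 2 0x2 <|
  Net.cons 1 0x404 <|
  Net.cons 2 0x10 <|
  Net.cons 4 0x804 <|
  Net.cons 8 0x84 <|
  Net.nil
noncomputable def m12c2_n2 : Net := Net.cons 8 0xa0 <|
  Net.cons 4 0xa02 <|
  Net.cons 1 0x510 <|
  Net.cons 4 0xa06 <|
  Net.cons 8 0xa0 <|
  Net.nil
noncomputable def m12c2_n3 : Net := Net.cons 8 0x40 <|
  Net.cons 4 0x604 <|
  Net.cons 2 0x2000 <|
  Net.cons 1 0x4000 <|
  Net.cons 2 0x2110 <|
  Net.cons 4 0x606 <|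
  Net.cons 8 0x40 <|
  Net.nil
noncomputable def m12c2_n4 : Net := Net.cons 8 0x8 <|
  Net.cons 4 0x4 <|
  Net.cons 2 0x20 <|
  Net.cons 1 0x14 <|
  Net.cons 2 0x320 <|
  Net.cons 4 0x4 <|
  Net.cons 8 0x8 <|
  Net.nil
noncomputable def m12c2_n5 : Net := Net.cons 8 0x4 <|
  Net.cons 4 0xc <|
  Net.cons 2 0x20 <|
  Net.cons 1 0x45 <|
  Net.cons 2 0x120 <|
  Net.cons 4 0xc <|
  Net.cons 8 0x4 <|
  Net.nil
noncomputable def m12c2_ns : List Net := [m12c2_n0, m12c2_n1, m12c2_n2, m12c2_n3, m12c2_n4, m12c2_n5]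
theorem m12c2_v : validAll (2 ^ 4) m12c2_ns = true := by decide +kernel
noncomputable def m12c2_C : List (ℕ × ℕ) := [(0x201, 0x0),
  (0x101, 0x0),
  (0xb6d, 0x0),
  (0x22, 0x0),
  (0x208, 0x0),
  (0x420, 0x0)]
noncomputable def m12c2_U : ℕ := Nat.sub (Nat.pow 2 12) 1
noncomputable def m12c2_a : List ℕ := [0, 0, 0, 0, 0, 0, 1, 0, 0, 0, 1, 1, 0, 0, 0, 0, 0, 1]

end Cfsg.Agent.Gol
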