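import Cfsg.Agent.Mult.Slices
import Cfsg.Agent.Gol.M12c2T0

set_option autoImplicit false
set_option Elab.async false
set_option maxRecDepth 100000
set_option linter.all false

namespace Cfsg.Agent.Gol
open Cfsg.Agent.CGT

open Cfsg.Agent.Mult

theorem m12c2_p : Holds (lp m12c2_ns) m12RR :=
  (forall_dropL (a := 0) (m := 18) (holdsB_sound m12c2_v m12c2_p0) (forall_dropL_end (l := m12RR) (a := 18) (by decide +kernel)))
theorem m12c2_proj : Proj (yM 2 m12c2_ns m12c2_C) (zM 2 m12c2_U) 2 m12RR m12c2_a :=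
  have hq : 2 = 2 ∨ 2 = 3 ∨ 2 = 4 := by decide
  proj_mono hq m12c2_v m12c2_p (MonR.zero.step hq m12c2_v m12c2_m0) m12c2_i

end Cfsg.Agent.Gol
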