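import Cfsg.Agent.Mult.Slices
import Cfsg.Agent.Gol.M22c4D

set_option autoImplicit false
set_option Elab.async false
set_option maxRecDepth 100000
set_option linter.all false

namespace Cfsg.Agent.Gol
open Cfsg.Agent.CGT

open Cfsg.Agent.Mult

set_option Elab.async false
theorem m22c4_p0 : holdsB 11 m22c4_ns (takeL 20 (dropL 0 m22RR)) = true := by decide +kernel
theorem m22c4_m0 : monB 4 m22c4_ns m22c4_C m22c4_U m22RR m22c4_a 0 20 = true := by decide +kernel
theorem m22c4_i : invB m22c4_ns m22c4_U m22RR m22c4_a 20 = true := by decide +kernel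

end Cfsg.Agent.Gol
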