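import Cfsg.Agent.Mult.Slices
import Cfsg.Agent.Gol.M22c4T0

set_option autoImplicit false
set_option Elab.async false
set_option maxRecDepth 100000
set_option linter.all false

namespace Cfsg.Agent.Gol
open Cfsg.Agent.CGT

open Cfsg.Agent.Mult

theorem m22c4_p : Holds (lp m22c4_ns) m22RR :=
  (forall_dropL (a := 0) (m := 20) (holdsB_sound m22c4_v m22c4_p0) (forall_dropL_end (l := m22RR) (a := 20) (by decide +kernel)))
theorem m22c4_proj : Proj (yM 4 m22c4_ns m22c4_C) (zM 4 m22c4_U) 4 m22RR m22c4_a :=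
  have hq : 4 = 2 ∨ 4 = 3 ∨ 4 = 4 := by decide
  proj_mono hq m22c4_v m22c4_p (MonR.zero.step hq m22c4_v m22c4_m0) m22c4_i

end Cfsg.Agent.Gol
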